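import Cfsg.Agent.Amalgam.CharPVertices
import Cfsg.Agent.Eq.Def_LocalStructure

/-!
The iterated closures `V_δ^{(n)}` of an amalgam pair, and the transitivity of `O^p(O^{p'}(G_δ))`
on the neighbours of `δ` under the standing hypothesis on the normalizers of Sylow subgroups.
-/

set_option autoImplicit false
open Cfsg
open scoped Pointwise commutatorElement

namespace CfsgLib.Amalgam

variable {X : Type*} [Group X] {M₁ M₂ : Subgroup X} {p : ℕ}

theorem dist_smul_le {δ μ : CosetVertex M₁ M₂} (hgen : M₁ ⊔ M₂ = ⊤) (g : X) :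
    (cosetGraph M₁ M₂).dist (g • δ) (g • μ) ≤ (cosetGraph M₁ M₂).dist δ μ := by
  obtain ⟨w, hw⟩ := (connected hgen).exists_walk_length_eq_dist δ μ
  let f : cosetGraph M₁ M₂ →g cosetGraph M₁ M₂ := ⟨fun a => g • a, fun {_ _} h => adj_smul g h⟩
  rw [← hw, ← SimpleGraph.Walk.length_map f w]
  exact SimpleGraph.dist_le (w.map f)

theorem dist_smul {δ μ : CosetVertex M₁ M₂} (hgen : M₁ ⊔ M₂ = ⊤) (g : X) :
    (cosetGraph M₁ M₂).dist (g • δ) (g • μ) = (cosetGraph M₁ M₂).dist δ μ := by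
  refine le_antisymm (dist_smul_le hgen g) ?_
  simpa using dist_smul_le (δ := g • δ) (μ := g • μ) hgen g⁻¹

theorem pow_prime_power_mem_pResidual [Fact p.Prime] {L : Type*} [Group L] [Finite L] (g : L) :
    g ^ p ^ (orderOf g).factorization p ∈ pResidual p L := by
  refine Subgroup.subset_closure ?_
  show Nat.Coprime (orderOf (g ^ p ^ (orderOf g).factorization p)) p
  rw [orderOf_pow, Nat.gcd_eq_right (Nat.ordProj_dvd _ _)]
  exact (Nat.coprime_ordCompl Fact.out (orderOf_pos g).ne').symm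

theorem pResidual_normal (p : ℕ) (L : Type*) [Group L] : (pResidual p L).Normal := by
  refine ⟨fun x hx g => ?_⟩
  induction hx using Subgroup.closure_induction with
  | mem x hx =>
    refine Subgroup.subset_closure ?_
    show Nat.Coprime (orderOf (MulAut.conj g x)) p
    rw [MulEquiv.orderOf_eq]
    exact hx
  | one => simp
  | mul a b _ _ ha hb => simpa [mul_assoc] using mul_mem ha hb
  | inv a _ ha => simpa [mul_assoc] using inv_mem ha

theorem pResidual_sup_sylow [Fact p.Prime] {L : Type*} [Group L] [Finite L] (S : Sylow p L) :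
    pResidual p L ⊔ (S : Subgroup L) = ⊤ := by
  have : (pResidual p L).Normal := pResidual_normal p L
  have hq : IsPGroup p (L ⧸ pResidual p L) := by
    intro a
    induction a using QuotientGroup.induction_on with
    | H g => exact ⟨_, by rw [← QuotientGroup.mk_pow, QuotientGroup.eq_one_iff]
                          exact pow_prime_power_mem_pResidual g⟩
  rw [← Subgroup.index_eq_one]
  by_contra hne
  obtain ⟨k, hk⟩ : ∃ k, (pResidual p L ⊔ (S : Subgroup L)).index = p ^ k := by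
    obtain ⟨n, hn⟩ := IsPGroup.iff_card.1 hq
    have : (pResidual p L ⊔ (S : Subgroup L)).index ∣ p ^ n :=
      hn ▸ Subgroup.index_dvd_of_le le_sup_left
    obtain ⟨k, -, hk⟩ := (Nat.dvd_prime_pow Fact.out).1 this
    exact ⟨k, hk⟩
  have h2 : (pResidual p L ⊔ (S : Subgroup L)).index ∣ (S : Subgroup L).index :=
    Subgroup.index_dvd_of_le le_sup_right
  cases k with
  | zero => exact hne (by simpa using hk)
  | succ k => exact S.not_dvd_index ((dvd_pow_self p k.succ_ne_zero).trans (hk ▸ h2))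

theorem sylowOf_of_le [Fact p.Prime] {T H K : Subgroup X} [Finite H] (hT : SylowOf p T H)
    (hTK : T ≤ K) (hKH : K ≤ H) : SylowOf p T K := by
  have : Finite K := Finite.of_injective (Subgroup.inclusion hKH) (Subgroup.inclusion_injective _)
  obtain ⟨Q, hQ⟩ := (hT.isPGroup.comap_of_injective K.subtype K.subtype_injective :
    IsPGroup p (T.subgroupOf K)).exists_le_sylow
  refine ⟨Q, le_antisymm ?_ fun x hx => ⟨⟨x, hTK hx⟩, hQ hx, rfl⟩⟩
  obtain ⟨S, hS⟩ := hT
  obtain ⟨Q', hQ'⟩ := ((Q.isPGroup'.map K.subtype).comap_of_injective H.subtype H.subtype_injective :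
    IsPGroup p (((Q : Subgroup K).map K.subtype).subgroupOf H)).exists_le_sylow
  have hSQ : (S : Subgroup H) ≤ Q' := fun x hx => hQ' (by
    refine ⟨⟨x, hTK ?_⟩, hQ ?_, rfl⟩ <;> exact hS ▸ Subgroup.mem_map_of_mem _ hx)
  rintro _ ⟨y, hy, rfl⟩
  have hyQ' : (⟨y, hKH y.2⟩ : H) ∈ (Q' : Subgroup H) := hQ' ⟨y, hy, rfl⟩
  rw [S.is_maximal' Q'.isPGroup' hSQ] at hyQ'
  exact hS ▸ Subgroup.mem_map_of_mem H.subtype hyQ'

/-- The normalizer hypothesis on an amalgam pair, in the form used on the graph. -/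
theorem normalizer_sylow_le_stabilizer [Fact p.Prime] (h : IsSpeAmalgamPair p M₁ M₂)
    {δ μ : CosetVertex M₁ M₂} (hμ : (cosetGraph M₁ M₂).Adj δ μ) {T : Subgroup X}
    (hT : SylowOf p T (edgeStabilizer δ μ)) :
    MulAction.stabilizer X δ ⊓ Subgroup.normalizer (T : Set X) ≤ MulAction.stabilizer X μ := by
  rintro n ⟨hnδ', hnT⟩
  have hnδ : n ∈ MulAction.stabilizer X δ := hnδ'
  clear hnδ'
  obtain ⟨x, hx⟩ := cosetGraph_adj_iff.1 hμ
  have := vertex_finite h.1 δ
  have : Finite ↥(edgeStabilizer δ μ) :=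
    Finite.of_injective (Subgroup.inclusion inf_le_left) (Subgroup.inclusion_injective _)
  set c := MulAut.conj x
  have hTb : SylowOf p (T.map c.symm.toMonoidHom) (M₁ ⊓ M₂) := by
    have hc : ∀ b : CosetVertex M₁ M₂, (MulAction.stabilizer X (x • b)).map c.symm.toMonoidHom =
        MulAction.stabilizer X b := by
      intro b
      rw [stabilizer_smul_vertex, Subgroup.map_map]
      convert Subgroup.map_id _ using 2
      ext y
      simp [c]
    convert hT.mapEquiv c.symm using 1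
    rw [edgeStabilizer, Subgroup.map_inf _ _ _ c.symm.injective]
    rcases hx with ⟨rfl, rfl⟩ | ⟨rfl, rfl⟩ <;> rw [hc, hc, stabilizer_base₁, stabilizer_base₂]
    exact inf_comm _ _
  obtain ⟨S, hS⟩ := hTb
  obtain ⟨e1, e2⟩ := h.2.1 S
  rw [hS] at e1 e2
  have hnm : c.symm n ∈ Subgroup.normalizer (T.map c.symm.toMonoidHom : Set X) :=
    Subgroup.le_normalizer_map c.symm.toMonoidHom (Subgroup.mem_map_of_mem _ hnT)
  have key : ∀ b : CosetVertex M₁ M₂,
      c.symm n ∈ MulAction.stabilizer X b ↔ n ∈ MulAction.stabilizer X (x • b) := by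
    intro b
    rw [MulAction.mem_stabilizer_iff, MulAction.mem_stabilizer_iff,
      show c.symm n = x⁻¹ * n * x from rfl, mul_smul, mul_smul, inv_smul_eq_iff]
  rcases hx with ⟨rfl, rfl⟩ | ⟨rfl, rfl⟩
  · rw [← key, stabilizer_base₁] at hnδ
    rw [← key, stabilizer_base₂]
    exact (e2 ⟨hnδ, hnm⟩).2
  · rw [← key, stabilizer_base₂] at hnδ
    rw [← key, stabilizer_base₁]
    exact (e2 (by rw [e1]; exact ⟨hnδ, hnm⟩)).1

/-- `O^{p'}(G_δ)`. -/
abbrev vertexL (p : ℕ) (δ : CosetVertex M₁ M₂) : Subgroup X :=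
  pElementClosure p (MulAction.stabilizer X δ)

/-- `O^p(O^{p'}(G_δ))`. -/
abbrev vertexOp (p : ℕ) (δ : CosetVertex M₁ M₂) : Subgroup X :=
  (pResidual p ↥(vertexL p δ)).map (vertexL p δ).subtype

theorem vertexL_le (p : ℕ) (δ : CosetVertex M₁ M₂) : vertexL p δ ≤ MulAction.stabilizer X δ :=
  (Subgroup.closure_le _).2 fun _ hx => hx.1

theorem le_vertexL {δ : CosetVertex M₁ M₂} {T : Subgroup X} [Fact p.Prime] (hT : IsPGroup p T)
    (hle : T ≤ MulAction.stabilizer X δ) : T ≤ vertexL p δ := fun x hx =>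
  Subgroup.subset_closure ⟨hle hx, by
    obtain ⟨k, hk⟩ := IsPGroup.iff_orderOf.1 hT ⟨x, hx⟩
    exact ⟨k, by simpa using hk⟩⟩

theorem exists_vertexOp_smul [Fact p.Prime] (h : IsSpeAmalgamPair p M₁ M₂)
    {δ μ ν : CosetVertex M₁ M₂} (hμ : (cosetGraph M₁ M₂).Adj δ μ)
    (hν : (cosetGraph M₁ M₂).Adj δ ν) : ∃ k ∈ vertexOp p δ, k • μ = ν := by
  have := vertex_finite h.1 δ
  have : Finite ↥(vertexL p δ) :=
    Finite.of_injective (Subgroup.inclusion (vertexL_le p δ)) (Subgroup.inclusion_injective _)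
  obtain ⟨T, hT⟩ := sylowOf_exists p (edgeStabilizer δ μ)
  have hTG := edge_sylow h.1 hμ hT
  obtain ⟨g, hg, rfl⟩ := neighbours_transitive hμ hν
  have hTg : SylowOf p (T.map (MulAut.conj g).toMonoidHom) (MulAction.stabilizer X δ) := by
    have := hTG.mapEquiv (MulAut.conj g)
    rwa [mem_normalizer_conj_eq (T := MulAction.stabilizer X δ) (Subgroup.le_normalizer hg)] at this
  have h1 := sylowOf_of_le hTG (le_vertexL hTG.isPGroup hTG.le) (vertexL_le p δ)
  have h2 := sylowOf_of_le hTg (le_vertexL hTg.isPGroup hTg.le) (vertexL_le p δ)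
  obtain ⟨l, hl, hlT⟩ := h1.conj h2
  have hn : l⁻¹ * g ∈ Subgroup.normalizer (T : Set X) := by
    refine Subgroup.mem_normalizer_iff.2 fun y => ⟨fun hy => ?_, fun hy => ?_⟩
    · have : g * y * g⁻¹ ∈ T.map (MulAut.conj l).toMonoidHom := hlT ▸ ⟨y, hy, rfl⟩
      obtain ⟨z, hz, hzy⟩ := this
      have e : l⁻¹ * g * y * (l⁻¹ * g)⁻¹ = z := by
        calc l⁻¹ * g * y * (l⁻¹ * g)⁻¹ = l⁻¹ * (g * y * g⁻¹) * l := by group
          _ = l⁻¹ * (l * z * l⁻¹) * l := congrArg (fun w => l⁻¹ * w * l) hzy.symm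
          _ = z := by group
      rwa [e]
    · have : g * y * g⁻¹ ∈ T.map (MulAut.conj g).toMonoidHom :=
        hlT ▸ ⟨_, hy, by simp [mul_assoc]⟩
      obtain ⟨z, hz, hzy⟩ := this
      rwa [← (MulAut.conj g).injective hzy]
  have hnμ : (l⁻¹ * g) • μ = μ := normalizer_sylow_le_stabilizer h hμ hT
    ⟨(show l⁻¹ * g ∈ MulAction.stabilizer X δ from mul_mem (inv_mem (vertexL_le p δ hl)) hg), hn⟩
  obtain ⟨S, hS⟩ := h1
  have htop := pResidual_sup_sylow S
  have : (pResidual p ↥(vertexL p δ)).Normal := pResidual_normal _ _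
  have hmem : (⟨l, hl⟩ : vertexL p δ) ∈ pResidual p ↥(vertexL p δ) ⊔ (S : Subgroup ↥(vertexL p δ)) :=
    htop ▸ Subgroup.mem_top _
  obtain ⟨r, hr, t, ht, hrt⟩ := Subgroup.mem_sup_of_normal_left.1 hmem
  refine ⟨r, Subgroup.mem_map_of_mem _ hr, ?_⟩
  have htμ : (t : X) • μ = μ := (hT.le (hS ▸ Subgroup.mem_map_of_mem _ ht)).2
  calc (r : X) • μ = (r : X) • ((t : X) • μ) := by rw [htμ]
    _ = l • μ := by rw [← mul_smul]; exact congrArg (fun z => z • μ) (congrArg Subtype.val hrt)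
    _ = l • ((l⁻¹ * g) • μ) := by rw [hnμ]
    _ = g • μ := by rw [← mul_smul, mul_inv_cancel_left]

theorem map_vertexVIter [Fact p.Prime] (h : IsCharPAmalgamPair p M₁ M₂) (n : ℕ) (g : X)
    (δ : CosetVertex M₁ M₂) :
    (vertexVIter p M₁ M₂ n δ).map (MulAut.conj g).toMonoidHom = vertexVIter p M₁ M₂ n (g • δ) := by
  have key : ∀ (g : X) (δ : CosetVertex M₁ M₂), (vertexVIter p M₁ M₂ n δ).map (MulAut.conj g).toMonoidHom
      ≤ vertexVIter p M₁ M₂ n (g • δ) := by
    intro g δ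
    rw [vertexVIter, Subgroup.map_iSup]
    refine iSup_le fun μ => ?_
    have := vertex_finite h (μ : CosetVertex M₁ M₂)
    refine le_trans ?_ (le_iSup (fun ν : {ν : CosetVertex M₁ M₂ //
      (cosetGraph M₁ M₂).dist (g • δ) ν ≤ n} => vertexZ p (ν : CosetVertex M₁ M₂))
      ⟨g • (μ : CosetVertex M₁ M₂), (dist_smul_le h.1.1 g).trans μ.2⟩)
    refine (map_sylowCenterClosure_le _ _).trans (le_of_eq ?_)
    exact congrArg (sylowCenterClosure p) (stabilizer_smul_vertex g _).symm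
  refine le_antisymm (key g δ) fun x hx => ?_
  have := key g⁻¹ (g • δ) (Subgroup.mem_map_of_mem _ hx)
  rw [inv_smul_smul] at this
  exact ⟨_, this, by simp [mul_assoc]⟩

theorem stabilizer_le_normalizer_VIter [Fact p.Prime] (h : IsCharPAmalgamPair p M₁ M₂) (n : ℕ)
    (δ : CosetVertex M₁ M₂) :
    MulAction.stabilizer X δ ≤ Subgroup.normalizer (vertexVIter p M₁ M₂ n δ : Set X) := by
  intro g hg
  have e : (vertexVIter p M₁ M₂ n δ).map (MulAut.conj g).toMonoidHom = vertexVIter p M₁ M₂ n δ := by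
    rw [map_vertexVIter h, MulAction.mem_stabilizer_iff.1 hg]
  refine Subgroup.mem_normalizer_iff.2 fun x => ⟨fun hx => e ▸ Subgroup.mem_map_of_mem _ hx, fun hx => ?_⟩
  rw [← e] at hx
  obtain ⟨y, hy, hyx⟩ := hx
  rwa [← (MulAut.conj g).injective hyx]

theorem vertexZ_le_VIter {n : ℕ} {δ μ : CosetVertex M₁ M₂}
    (hd : (cosetGraph M₁ M₂).dist δ μ ≤ n) : vertexZ p μ ≤ vertexVIter p M₁ M₂ n δ :=
  le_iSup (fun ν : {ν : CosetVertex M₁ M₂ // (cosetGraph M₁ M₂).dist δ ν ≤ n} =>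
    vertexZ p (ν : CosetVertex M₁ M₂)) ⟨μ, hd⟩

theorem VIter_le_of_adj (h : IsCharPAmalgamPair p M₁ M₂) (n : ℕ) {δ μ : CosetVertex M₁ M₂}
    (hμ : (cosetGraph M₁ M₂).Adj δ μ) :
    vertexVIter p M₁ M₂ n μ ≤ vertexVIter p M₁ M₂ (n + 1) δ := by
  refine iSup_le fun ν => vertexZ_le_VIter ?_
  refine ((connected h.1.1).dist_triangle (v := μ)).trans ?_
  rw [SimpleGraph.dist_eq_one_iff_adj.2 hμ, add_comm]
  exact Nat.add_le_add_right ν.2 1

theorem VIter_le_iff_neighbours [Fact p.Prime] (h : IsCharPAmalgamPair p M₁ M₂) (n : ℕ)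
    {δ μ₀ : CosetVertex M₁ M₂} (hμ₀ : (cosetGraph M₁ M₂).Adj δ μ₀) {A : Subgroup X}
    (hA : ∀ μ, (cosetGraph M₁ M₂).Adj δ μ → vertexVIter p M₁ M₂ n μ ≤ A) :
    vertexVIter p M₁ M₂ (n + 1) δ ≤ A := by
  refine iSup_le fun ν => ?_
  by_cases hν : (ν : CosetVertex M₁ M₂) = δ
  · have := vertex_finite h δ
    rw [hν]
    refine sylowCenterClosure_le_iff.2 fun T hT => ?_
    obtain ⟨T₀, hT₀⟩ := sylowOf_exists p (edgeStabilizer δ μ₀)
    have : Finite ↥(edgeStabilizer δ μ₀) :=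
      Finite.of_injective (Subgroup.inclusion inf_le_left) (Subgroup.inclusion_injective _)
    obtain ⟨g, hg, hgT⟩ := (edge_sylow h hμ₀ hT₀).conj hT
    have hadj : (cosetGraph M₁ M₂).Adj δ (g • μ₀) := by
      have := adj_smul g hμ₀
      rwa [MulAction.mem_stabilizer_iff.1 hg] at this
    have := vertex_finite h μ₀
    have hT' : SylowOf p T (MulAction.stabilizer X (g • μ₀)) := by
      rw [stabilizer_smul_vertex, ← hgT]
      refine (edge_sylow h hμ₀.symm ?_).mapEquiv _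
      rwa [edgeStabilizer, inf_comm]
    refine (le_sylowCenterClosure hT').trans ((vertexZ_le_VIter ?_).trans (hA _ hadj))
    simp
  · obtain ⟨ν, hdν⟩ := ν
    obtain ⟨w, hw⟩ := (connected h.1.1).exists_walk_length_eq_dist δ ν
    cases w with
    | nil => exact absurd rfl hν
    | @cons _ μ _ hadj w =>
      refine (vertexZ_le_VIter ?_).trans (hA μ hadj)
      refine (SimpleGraph.dist_le w).trans ?_
      simp only [SimpleGraph.Walk.length_cons] at hw
      omega

theorem vertexZ_ne_bot [Fact p.Prime] (h : IsCharPAmalgamPair p M₁ M₂) (δ : CosetVertex M₁ M₂) :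
    vertexZ p δ ≠ ⊥ := by
  have := vertex_finite h δ
  have hdvd : p ∣ Nat.card ↥(MulAction.stabilizer X δ) := by
    obtain ⟨x, rfl | rfl⟩ := vertex_cases δ <;> rw [stabilizer_smul_vertex]
    · rw [stabilizer_base₁, ← Nat.card_congr
        (M₁.equivMapOfInjective (MulAut.conj x).toMonoidHom (MulAut.conj x).injective).toEquiv]
      exact h.2.2.2.1
    · rw [stabilizer_base₂, ← Nat.card_congr
        (M₂.equivMapOfInjective (MulAut.conj x).toMonoidHom (MulAut.conj x).injective).toEquiv]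
      exact h.2.2.2.2.1
  obtain ⟨S⟩ := (inferInstance : Nonempty (Sylow p ↥(MulAction.stabilizer X δ)))
  have hne : Nontrivial ↥(S : Subgroup ↥(MulAction.stabilizer X δ)) :=
    (Subgroup.nontrivial_iff_ne_bot _).2 (S.ne_bot_of_dvd_card hdvd)
  obtain ⟨⟨z, hzS⟩, hzc, hz1⟩ := (Subgroup.nontrivial_iff_exists_ne_one _).1
    (IsPGroup.center_nontrivial S.isPGroup')
  obtain ⟨k, hk⟩ := IsPGroup.iff_orderOf.1 S.isPGroup' ⟨z, hzS⟩
  cases k with
  | zero => exact absurd (orderOf_eq_one_iff.1 (by simpa using hk)) hz1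
  | succ k =>
    intro hbot
    set y : X := ((z ^ p ^ k : ↥(MulAction.stabilizer X δ)) : X) with hy
    have hyZ : y ∈ vertexZ p δ := by
      refine le_sylowCenterClosure ⟨S, rfl⟩ (Subgroup.subset_closure ⟨⟨?_, ?_⟩, ?_⟩)
      · exact Subgroup.mem_map_of_mem _ (pow_mem hzS _)
      · refine Subgroup.mem_centralizer_iff.2 ?_
        rintro _ ⟨w, hw, rfl⟩
        have := Subgroup.mem_center_iff.1 (pow_mem hzc (p ^ k)) ⟨w, hw⟩
        exact congrArg Subtype.val (congrArg Subtype.val this)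
      · rw [hy, ← Subgroup.coe_pow, ← pow_mul, ← pow_succ, ← hk, Subgroup.orderOf_mk,
          pow_orderOf_eq_one, Subgroup.coe_one]
    rw [hbot, Subgroup.mem_bot, hy, OneMemClass.coe_eq_one, ← orderOf_dvd_iff_pow_eq_one] at hyZ
    rw [Subgroup.orderOf_mk] at hk
    rw [hk] at hyZ
    exact absurd (Nat.le_of_dvd (pow_pos (Fact.out : p.Prime).pos k) hyZ)
      (not_le.2 (Nat.pow_lt_pow_right (Fact.out : p.Prime).one_lt (Nat.lt_succ_self k)))

theorem lowerCentralSeries_eventually_bot [Fact p.Prime] {Q : Subgroup X} [Finite Q]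
    (hQ : IsPGroup p Q) : ∃ n, Q.lowerCentralSeries n = ⊥ := by
  exact (Subgroup.isNilpotent_iff_lowerCentralSeries Q).1 hQ.isNilpotent

theorem le_of_le_sup_commutator [Fact p.Prime] {U V Q : Subgroup X} [Finite Q] (hQ : IsPGroup p Q)
    (hVQ : V ≤ Q) (hUV : U ≤ V) (hQU : Q ≤ Subgroup.normalizer (U : Set X))
    (h : V ≤ U ⊔ ⁅V, Q⁆) : V ≤ U := by
  have step : ∀ n, V ≤ U ⊔ Q.lowerCentralSeries n := by
    intro n
    induction n with
    | zero => exact hVQ.trans le_sup_right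
    | succ n ih =>
      set W := U ⊔ Q.lowerCentralSeries (n + 1)
      have hQW : ∀ q ∈ Q, ∀ w ∈ W, q * w * q⁻¹ ∈ W := by
        intro q hq w hw
        have h1 : W.map (MulAut.conj q).toMonoidHom = W := by
          rw [Subgroup.map_sup, mem_normalizer_conj_eq (hQU hq),
            mem_normalizer_conj_eq (Q.self_le_normalizer_lowerCentralSeries (n + 1) hq)]
        exact h1 ▸ Subgroup.mem_map_of_mem (MulAut.conj q).toMonoidHom hw
      refine h.trans (sup_le le_sup_left (Subgroup.commutator_le.2 fun v hv q hq => ?_))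
      have hv' := ih hv
      rw [Subgroup.sup_eq_closure] at hv'
      suffices v ∈ Q ∧ ∀ q ∈ Q, ⁅v, q⁆ ∈ W from this.2 q hq
      clear hv hq q
      induction hv' using Subgroup.closure_induction with
      | mem a ha =>
        rcases ha with ha | ha
        · refine ⟨hVQ (hUV ha), fun q hq => ?_⟩
          have h2 : a * (q * a⁻¹ * q⁻¹) ∈ W := mul_mem (Subgroup.mem_sup_left ha)
            (hQW q hq _ (Subgroup.mem_sup_left (inv_mem ha)))
          simpa [commutatorElement_def, mul_assoc] using h2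
        · have hn : Q.lowerCentralSeries n ≤ Q := by
            simpa using Q.lowerCentralSeries_antitone (Nat.zero_le n)
          exact ⟨hn ha, fun q hq => Subgroup.mem_sup_right (Subgroup.commutator_mem_commutator ha hq)⟩
      | one => exact ⟨one_mem _, fun q _ => by simp⟩
      | mul a b _ _ ha hb =>
        refine ⟨mul_mem ha.1 hb.1, fun q hq => ?_⟩
        have : ⁅a * b, q⁆ = a * ⁅b, q⁆ * a⁻¹ * ⁅a, q⁆ := by simp only [commutatorElement_def]; group
        rw [this]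
        exact mul_mem (hQW a ha.1 _ (hb.2 q hq)) (ha.2 q hq)
      | inv a _ ha =>
        refine ⟨inv_mem ha.1, fun q hq => ?_⟩
        have : ⁅a⁻¹, q⁆ = a⁻¹ * ⁅a, q⁆⁻¹ * a⁻¹⁻¹ := by simp only [commutatorElement_def]; group
        rw [this]
        exact hQW _ (inv_mem ha.1) _ (inv_mem (ha.2 q hq))
  obtain ⟨n, hn⟩ := lowerCentralSeries_eventually_bot hQ
  simpa [hn] using step n

/-- No closure `V_δ^{(n+1)}` inside `Q_δ` can be reduced by `O^p(O^{p'}(G_δ))` into one neighbour's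
closure `V_μ^{(n)}` and the subgroup `C`, for `C` either the smaller closure or `[V, Q_δ]`. -/
theorem VIter_succ_not_eq [Fact p.Prime] (h : IsSpeAmalgamPair p M₁ M₂) (n : ℕ)
    {δ : CosetVertex M₁ M₂} (hVQ : vertexVIter p M₁ M₂ (n + 1) δ ≤ vertexQ p δ)
    {μ : CosetVertex M₁ M₂} (hμ : (cosetGraph M₁ M₂).Adj δ μ) :
    vertexVIter p M₁ M₂ (n + 1) δ ≠ vertexVIter p M₁ M₂ n μ := by
  intro he
  set V := vertexVIter p M₁ M₂ (n + 1) δ with hV
  have hVbot : V = ⊥ := by
    refine normalizer_transitive_eq_bot h.1.1 hμ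
      (hVQ.trans (le_inf (Subgroup.map_subtype_le _) (vertexQ_le_stabilizer h.1 hμ)))
      (fun ν hν => ?_) (fun ν hν => ?_)
    · obtain ⟨g, hg, e⟩ := neighbours_transitive hμ hν
      exact ⟨g, ⟨stabilizer_le_normalizer_VIter h.1 _ _ hg, hg⟩, e⟩
    · obtain ⟨g, hg, e⟩ := neighbours_transitive hμ.symm hν
      refine ⟨g, ⟨?_, hg⟩, e⟩
      rw [he]
      exact stabilizer_le_normalizer_VIter h.1 _ _ hg
  refine vertexZ_ne_bot h.1 δ (le_bot_iff.1 ?_)
  rw [← hVbot, hV]
  exact vertexZ_le_VIter (by simp)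

theorem exists_neighbour (δ : CosetVertex M₁ M₂) : ∃ μ, (cosetGraph M₁ M₂).Adj δ μ := by
  obtain ⟨x, rfl | rfl⟩ := vertex_cases δ
  · exact ⟨_, adj_smul_base x⟩
  · exact ⟨_, (adj_smul_base x).symm⟩

theorem neighbour_VIter_le_sup [Fact p.Prime] (h : IsSpeAmalgamPair p M₁ M₂) (n : ℕ)
    {δ μ ν : CosetVertex M₁ M₂} (hμ : (cosetGraph M₁ M₂).Adj δ μ)
    (hν : (cosetGraph M₁ M₂).Adj δ ν) {C : Subgroup X}
    (hC : ⁅vertexVIter p M₁ M₂ (n + 1) δ, vertexOp p δ⁆ ≤ C) :
    vertexVIter p M₁ M₂ n ν ≤ vertexVIter p M₁ M₂ n μ ⊔ C := by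
  obtain ⟨k, hk, rfl⟩ := exists_vertexOp_smul h hμ hν
  rw [← map_vertexVIter h.1]
  rintro _ ⟨u, hu, rfl⟩
  change k * u * k⁻¹ ∈ _
  have hu' : u ∈ vertexVIter p M₁ M₂ (n + 1) δ := VIter_le_of_adj h.1 n hμ hu
  have e : k * u * k⁻¹ = ⁅u, k⁆⁻¹ * u := by simp only [commutatorElement_def]; group
  rw [e]
  exact mul_mem (inv_mem (Subgroup.mem_sup_right (hC (Subgroup.commutator_mem_commutator hu' hk))))
    (Subgroup.mem_sup_left hu)

end CfsgLib.Amalgam
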